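import Cfsg.Agent.H776.Co.Model
import Cfsg.Agent.S0397
import Cfsg.Agent.S0398
import Cfsg.Prelude.Def_Spor_Conway

/-!
# The image of an injective homomorphism `P → Co0` is a Sylow 3-subgroup (helper49, for S5227)
-/

set_option autoImplicit false

namespace Cfsg.Agent.H49.CoSyl

open Cfsg Subgroup Cfsg.Agent.H776.Co
open Cfsg.Agent.H776.Co.P (card_P)

theorem fact0 : (Nat.card Co0).factorization 3 = 9 := by
  rw [Cfsg.Agent.S0397.result]
  have h : (8315553613086720000 : ℕ) = 3 ^ 9 * 422473891840000 := by norm_num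
  rw [h, Nat.factorization_mul (by norm_num) (by norm_num), Finsupp.add_apply, Nat.prime_three.factorization_pow,
    Finsupp.single_eq_same, Nat.factorization_eq_zero_of_not_dvd (by norm_num)]

theorem finite_co0 : Finite Co0 := Nat.finite_of_card_ne_zero (by rw [Cfsg.Agent.S0397.result]; norm_num)

theorem card_co1 : Nat.card Spor.Co1 * 2 = 8315553613086720000 := by
  rw [← Cfsg.Agent.S0397.result, ← Cfsg.Agent.S0398.result]
  exact (Subgroup.card_eq_card_quotient_mul_card_subgroup (center Co0)).symm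

theorem fact1 : (Nat.card Spor.Co1).factorization 3 = 9 := by
  have h : Nat.card Spor.Co1 = 3 ^ 9 * 211236945920000 := by
    have h1 := card_co1
    have h2 : Nat.card Spor.Co1 * 2 = (3 ^ 9 * 211236945920000) * 2 := h1.trans (by norm_num)
    exact Nat.eq_of_mul_eq_mul_right (by norm_num) h2
  rw [h, Nat.factorization_mul (by norm_num) (by norm_num), Finsupp.add_apply, Nat.prime_three.factorization_pow,
    Finsupp.single_eq_same, Nat.factorization_eq_zero_of_not_dvd (by norm_num)]

instance : Fact (Nat.Prime 3) := ⟨Nat.prime_three⟩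

/-- **`Co0`** -/
theorem syl_co0 (φ : P →* Co0) (h : Function.Injective φ) : ∃ T : Sylow 3 Co0, (T : Subgroup Co0) = φ.range := by
  have := finite_co0
  have h1 : Nat.card φ.range = 3 ^ (Nat.card Co0).factorization 3 := by
    rw [fact0, ← card_P]
    exact Nat.card_congr (MonoidHom.ofInjective h).toEquiv.symm
  exact ⟨Sylow.ofCard φ.range h1, rfl⟩

/-- **`Co1`** -/
theorem sylow_co1 (φ : P →* Co0) (h : Function.Injective φ) (T : Sylow 3 Spor.Co1) :
    Nonempty (P ≃* ↥(T : Subgroup Spor.Co1)) := by
  have := finite_co0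
  let ψ : P →* Spor.Co1 := (QuotientGroup.mk' (center Co0)).comp φ
  have hψ : Function.Injective ψ := by
    rw [injective_iff_map_eq_one]
    intro x hx
    have h1 : φ x ∈ center Co0 := (QuotientGroup.eq_one_iff (φ x)).1 hx
    have h2 : orderOf (φ x) ∣ 2 := by
      rw [← Cfsg.Agent.S0398.result, ← Subgroup.orderOf_mk (φ x) h1]
      exact orderOf_dvd_natCard _
    have h3 : orderOf (φ x) ∣ 3 ^ 9 := by
      rw [← card_P]
      exact (orderOf_map_dvd φ x).trans (orderOf_dvd_natCard x)
    have h4 : orderOf (φ x) ∣ 1 := by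
      have := Nat.dvd_gcd h2 h3
      rwa [show Nat.gcd 2 (3 ^ 9) = 1 by decide +kernel] at this
    have h5 : φ x = 1 := orderOf_eq_one_iff.1 (Nat.dvd_one.1 h4)
    exact h (by rw [h5, map_one])
  have hc : Nat.card ψ.range = 3 ^ (Nat.card Spor.Co1).factorization 3 := by
    rw [fact1, ← card_P]
    exact Nat.card_congr (MonoidHom.ofInjective hψ).toEquiv.symm
  have : Finite Spor.Co1 := Quotient.finite _
  let S : Sylow 3 Spor.Co1 := Sylow.ofCard ψ.range hc
  exact ⟨(MonoidHom.ofInjective hψ).trans (Sylow.equiv S T)⟩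

end Cfsg.Agent.H49.CoSyl
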